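/-
Maximal subgroups of `SL₃(q)` and `SU₃(q)`: monomial groups and orthonormal frames.
-/
import Cfsg.Agent.MaxSub.Cd4
import Cfsg.Agent.Geom.Perfect

set_option autoImplicit false

namespace CF.MH

open Matrix Cfsg Cfsg.Geo CF.MaxSub Subgroup Equiv
open scoped MatrixGroups

variable {F : Type*} [Field F]

section
variable {G G' : Type*} [Group G] [Group G']

theorem max_of [Finite G] {Ω M : Subgroup G} (h : M < Ω)
    (k : ∀ H, IsMaximalIn Ω H → M ≤ H → H ≤ M) : IsMaximalIn Ω M := ⟨h, fun N h1 h2 => by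
  refine or_iff_not_imp_right.2 fun e => ?_
  obtain ⟨H, h3, h4⟩ := Finite.exists_le_maximal (p := (· < Ω)) (h2.lt_of_ne e)
  exact (h3.trans (k H ⟨h4.prop, fun L a b => or_iff_not_imp_right.2 fun e =>
    (h4.le_of_ge (b.lt_of_ne e) a).antisymm a⟩ (h1.trans h3))).antisymm h1⟩

theorem max_cj {Ω Ω' M : Subgroup G} (P : G) (h : IsMaximalIn Ω M) (e : ∀ g, g ∈ Ω' ↔ P⁻¹ * g * P ∈ Ω)
    {M' : Subgroup G} (e' : ∀ g, g ∈ M' ↔ P⁻¹ * g * P ∈ M) : IsMaximalIn Ω' M' := by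
  rw [show M' = cjS P M from ext fun g => (e' g).trans mem_cjS.symm]
  exact IsMaximalIn.map_equiv (MulAut.conj P) h fun g => (e _).trans (by simp [mul_assoc])

theorem card_cj {M M' : Subgroup G} (P : G) (e : ∀ g, g ∈ M' ↔ P⁻¹ * g * P ∈ M) :
    Nat.card M' = Nat.card M := by
  rw [show M' = cjS P M from ext fun g => (e g).trans mem_cjS.symm]
  exact card_map_of_injective (MulAut.conj P).injective

variable (F) in
/-- The elements killed by all characters of order dividing `3`. -/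
def O3 (M : Subgroup G) : Subgroup G where
  carrier := {g | ∃ h : g ∈ M, ∀ χ : M →* Fˣ, (∀ x, χ x ^ 3 = 1) → χ ⟨g, h⟩ = 1}
  mul_mem' := fun ⟨h, a⟩ ⟨k, b⟩ => ⟨mul_mem h k, fun χ e =>
    (map_mul χ ⟨_, h⟩ ⟨_, k⟩).trans (by rw [a χ e, b χ e, mul_one])⟩
  one_mem' := ⟨one_mem _, fun χ _ => map_one χ⟩
  inv_mem' := fun ⟨h, a⟩ => ⟨inv_mem h, fun χ e => (map_inv χ ⟨_, h⟩).trans (by rw [a χ e, inv_one])⟩

variable {M : Subgroup G} {g t : G}

theorem O3_le : O3 F M ≤ M := fun _ h => h.1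

theorem O3.map {L : Subgroup G'} (θ : G' →* G) (h : ∀ x ∈ L, θ x ∈ M) {x : G'} (hx : x ∈ O3 F L) :
    θ x ∈ O3 F M := ⟨h x hx.1, fun χ e =>
  hx.2 (χ.comp ((θ.comp L.subtype).codRestrict M fun y => h y y.2)) fun _ => e _⟩

theorem O3_mono {L : Subgroup G} (h : L ≤ M) : O3 F L ≤ O3 F M := fun _ => O3.map (.id G) h

theorem O3.pow (hg : g ∈ M) {n : ℕ} (e : g ^ n = 1) (hn : ∀ c : Fˣ, c ^ 3 = 1 → c ^ n = 1 → c = 1) :
    g ∈ O3 F M := ⟨hg, fun χ h => hn _ (h _) (by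
  rw [← map_pow, show (⟨g, hg⟩ : M) ^ n = 1 from Subtype.ext e, map_one])⟩

theorem O3.invol (hg : g ∈ M) (e : g * g = 1) : g ∈ O3 F M :=
  O3.pow hg ((sq g).trans e) fun c a b => by rwa [pow_succ, b, one_mul] at a

theorem O3.cube (hg : g ∈ M) : g ^ 3 ∈ O3 F M :=
  ⟨pow_mem hg 3, fun χ h => (map_pow χ ⟨g, hg⟩ 3).trans (h _)⟩

theorem O3.comm (hg : g ∈ M) (ht : t ∈ M) : t * g * t⁻¹ * g⁻¹ ∈ O3 F M :=
  ⟨mul_mem (mul_mem (mul_mem ht hg) (inv_mem ht)) (inv_mem hg), fun χ _ =>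
    show χ (⟨t, ht⟩ * ⟨g, hg⟩ * ⟨t, ht⟩⁻¹ * ⟨g, hg⟩⁻¹) = 1 by simp [-MulMemClass.mk_mul_mk]⟩

theorem O3.real (hg : g ∈ M) (ht : t ∈ M) (e : t * g * t⁻¹ = g⁻¹) : g ∈ O3 F M := by
  have := mul_mem (O3.cube (F := F) hg) (O3.comm hg ht)
  rwa [e, show g ^ 3 * (g⁻¹ * g⁻¹) = g by group] at this

end

theorem O3.unip [Fintype F] {M : Subgroup (GL (Fin 3) F)} {g : GL (Fin 3) F} (hg : g ∈ M) {k : ℕ}
    (e : (g.val - 1) ^ k = 0) : g ∈ O3 F M := by
  obtain ⟨j, hj⟩ := exists_pow_char_eq_one e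
  have : Fact (ringChar F).Prime := ⟨CharP.char_is_prime F _⟩
  exact O3.pow hg hj fun c _ h => Units.ext (iterateFrobenius_inj F (ringChar F) j (by
    rw [iterateFrobenius_def, ← Units.val_pow_eq_pow_val, h]; simp))

/-- Monomial matrices. -/
def mon (s : Perm (Fin 3)) (d : Fin 3 → Fˣ) : GL (Fin 3) F where
  val := of fun i j => if i = s j then d j else 0
  inv := of fun i j => if j = s i then (d i)⁻¹ else 0
  val_inv := by
    ext i j
    obtain ⟨i, rfl⟩ := s.surjective i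
    obtain ⟨j, rfl⟩ := s.surjective j
    simp +contextual [mul_apply, one_apply, eq_comm]
  inv_val := by
    ext i j
    simp +contextual [mul_apply, one_apply, eq_comm]

variable {s s' : Perm (Fin 3)} {d d' : Fin 3 → Fˣ}

theorem mon_apply (i j : Fin 3) : (mon s d).val i j = if i = s j then (d j : F) else 0 := rfl

theorem mon_mul : mon s d * mon s' d' = mon (s * s') fun j => d (s' j) * d' j :=
  Units.ext (Matrix.ext fun i j => by simp [mul_apply, mon_apply]; congr)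

theorem mon_one : mon 1 (1 : Fin 3 → Fˣ) = 1 := Units.ext (Matrix.ext fun i j => by simp [mon_apply, one_apply]; congr)

theorem mon_inv : (mon s d)⁻¹ = mon s⁻¹ fun j => (d (s⁻¹ j))⁻¹ :=
  inv_eq_of_mul_eq_one_right (by simp [mon_mul, ← mon_one]; rfl)

theorem mon_single (j : Fin 3) : (mon s d).val *ᵥ Pi.single j 1 = (d j : F) • Pi.single (s j) 1 := by
  ext i; simp [mon_apply, Pi.single_apply]

theorem mon_inj (h : mon s d = mon s' d') : s = s' ∧ d = d' := by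
  have k : ∀ j, (mon s d).val (s j) j = (mon s' d').val (s j) j := fun j => by rw [h]
  simp only [mon_apply, if_true] at k
  have : s = s' := Equiv.ext fun j => by
    by_contra e
    simpa [e] using k j
  exact ⟨this, funext fun j => Units.ext (by simpa [this] using k j)⟩

/-- The sign as a unit. -/
def sg (F : Type*) [Field F] : Perm (Fin 3) →* Fˣ := (Units.map (Int.castRingHom F).toMonoidHom).comp Perm.sign

theorem sg_mem {μ : Subgroup Fˣ} (h : -1 ∈ μ) (s : Perm (Fin 3)) : sg F s ∈ μ := by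
  rcases Int.units_eq_one_or (Perm.sign s) with e | e <;> simp [sg, e, h, one_mem]

theorem sg_sq (s : Perm (Fin 3)) : sg F s * sg F s = 1 := by
  rw [sg, MonoidHom.comp_apply, ← map_mul, Int.units_mul_self, map_one]

theorem mon_sl : mon s d ∈ specialLinear (Fin 3) F ↔ sg F s * (d 0 * d 1 * d 2) = 1 := by
  have : (mon s d).val = s⁻¹.permMatrix F * diagonal fun j => (d j : F) := Matrix.ext fun i j => by
    simp [mon_apply, PEquiv.toMatrix_apply, Equiv.symm_apply_eq]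
  rw [mem_specialLinear, this, det_mul, det_permutation, det_diagonal, ← Units.val_inj]
  simp [sg, Fin.prod_univ_three]

/-- The monomial group. -/
def Mon (μ : Subgroup Fˣ) : Subgroup (GL (Fin 3) F) := specialLinear (Fin 3) F ⊓
  { carrier := {g | ∃ s d, (∀ i, d i ∈ μ) ∧ g = mon s d}
    mul_mem' := by
      rintro _ _ ⟨s, d, h, rfl⟩ ⟨s', d', h', rfl⟩
      exact ⟨_, _, fun _ => mul_mem (h _) (h' _), mon_mul⟩
    one_mem' := ⟨1, 1, fun _ => one_mem _, mon_one.symm⟩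
    inv_mem' := by
      rintro _ ⟨s, d, h, rfl⟩
      exact ⟨_, _, fun _ => inv_mem (h _), mon_inv⟩ }

variable {μ : Subgroup Fˣ}

theorem mon_mem (h : ∀ i, d i ∈ μ) (e : sg F s * (d 0 * d 1 * d 2) = 1) : mon s d ∈ Mon μ :=
  ⟨mon_sl.2 e, s, d, h, rfl⟩

theorem card_Mon (h : -1 ∈ μ) : Nat.card (Mon μ) = 6 * Nat.card μ ^ 2 := by
  refine (Nat.card_eq_of_bijective (fun x : Perm (Fin 3) × μ × μ => (⟨mon x.1
    ![x.2.1, x.2.2, sg F x.1 * (x.2.1 * x.2.2)⁻¹], mon_mem (by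
      simp [Fin.forall_fin_succ, mul_mem, inv_mem, sg_mem h]) (by
        rw [← sg_sq x.1]; simp [mul_left_comm])⟩ : Mon μ)) ⟨?_, ?_⟩).symm.trans ?_
  · rintro ⟨s, a, b⟩ ⟨s', a', b'⟩ e
    obtain ⟨e1, e2⟩ := mon_inj (congrArg Subtype.val e)
    exact Prod.ext e1 (Prod.ext (Subtype.ext (congrFun e2 0)) (Subtype.ext (congrFun e2 1)))
  · rintro ⟨_, e, s, d, h, rfl⟩
    refine ⟨(s, ⟨_, h 0⟩, ⟨_, h 1⟩), Subtype.ext (congrArg (mon s) (funext fun i => ?_))⟩
    have := mon_sl.1 e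
    fin_cases i
    · rfl
    · rfl
    · rw [← sg_sq s, mul_right_inj] at this
      exact Units.ext (by simp [← this]; field_simp)
  · simp [sq, Fintype.card_perm, Nat.factorial]

/-- The standard involution. -/
def tt (F : Type*) [Field F] : GL (Fin 3) F := mon (swap 1 2) (-1)

theorem coe_tt : (tt F).val = !![-1, 0, 0; 0, 0, -1; 0, -1, 0] := by
  ext i j; fin_cases i <;> fin_cases j <;> simp [tt, mon_apply, swap_apply_def]

theorem tt_mul : tt F * tt F = 1 := by simp [tt, mon_mul, ← mon_one]; rfl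

theorem tt_ne : tt F ≠ 1 := fun e => absurd (mon_inj (F := F) (e.trans mon_one.symm)).1 (by decide)

theorem tt_mem (h : -1 ∈ μ) : tt F ∈ Mon μ := mon_mem (fun _ => h) (by simp [sg])

theorem two_dvd {M : Subgroup (GL (Fin 3) F)} (h : tt F ∈ M) : 2 ∣ Nat.card M :=
  orderOf_eq_prime (p := 2) ((sq (tt F)).trans tt_mul) tt_ne ▸ orderOf_dvd_natCard M h

theorem Mon_le_O3 (h : -1 ∈ μ) : Mon μ ≤ O3 F (Mon μ) := by
  rintro _ ⟨e, s, d, hd, rfl⟩
  have m : ∀ s, mon s (fun _ => sg F s) ∈ Mon μ := fun s =>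
    mon_mem (fun _ => sg_mem h s) (by simp [← mul_assoc, sg_sq])
  have k : ∀ s, s * s = 1 → mon s (fun _ => sg F s) ∈ O3 F (Mon μ) := fun s e =>
    O3.invol (m s) (by simp [mon_mul, sg_sq, e, ← mon_one]; rfl)
  obtain ⟨u, v, hu, hv, rfl⟩ : ∃ u v, u * u = 1 ∧ v * v = 1 ∧ s = u * v := by clear e; revert s; decide
  have a := fun i => mul_mem (sg_mem h (u * v)) (hd i)
  have := mul_mem (mul_mem (k u hu) (k v hv)) (mul_mem
    (O3.real (F := F) (mon_mem (s := 1) (d := ![sg F (u * v) * d 0, 1, (sg F (u * v) * d 0)⁻¹])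
      (by simp [-map_mul, -_root_.mul_inv_rev, Fin.forall_fin_succ, a 0, one_mem]) (by simp)) (m (swap 0 2)) ?_)
    (O3.real (F := F) (mon_mem (s := 1) (d := ![1, sg F (u * v) * d 1, (sg F (u * v) * d 1)⁻¹])
      (by simp [-map_mul, -_root_.mul_inv_rev, Fin.forall_fin_succ, a 1, one_mem]) (by simp)) (m (swap 1 2)) ?_))
  · have e := mon_sl.1 e
    simp only [mon_mul, mul_one, ← map_mul] at this
    convert this using 2
    funext i
    rw [← sg_sq (u * v), mul_right_inj] at e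
    fin_cases i
    · simp [-map_mul, ← mul_assoc, sg_sq]
    · simp [-map_mul, ← mul_assoc, sg_sq]
    · have := congrArg Units.val (sg_sq (F := F) (u * v))
      rw [← e] at this ⊢
      refine Units.ext ?_
      simp at this ⊢
      field_simp
      linear_combination this
  all_goals
    simp only [mon_mul, mon_inv]
    congr 1
    · decide
    · funext i; fin_cases i <;> simp [swap_apply_def]

theorem span_top {A : Subalgebra F (Matrix (Fin 3) (Fin 3) F)} (h : single 0 0 1 ∈ A)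
    (k : !![0, 0, 1; 1, 0, 0; 0, 1, 0] ∈ A) : A = ⊤ := eq_top_iff.2 fun x _ => by
  rw [matrix_eq_sum_single x]
  refine sum_mem fun i _ => sum_mem fun j _ => ?_
  convert A.smul_mem (mul_mem (mul_mem (pow_mem k i) h) (pow_mem k (3 - j))) (x i j)
  rw [show single 0 0 1 = !![(1 : F), 0, 0; 0, 0, 0; 0, 0, 0] by ext a b; fin_cases a <;> fin_cases b <;> rfl]
  ext a b
  fin_cases i <;> fin_cases j <;> fin_cases a <;> fin_cases b <;> simp [pow_succ]

theorem span_Mon {c : Fˣ} (hc : c ∈ μ) (c1 : c ≠ 1) : spanAlg (Mon μ) = ⊤ := by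
  have h := coe_mem_spanAlg (mon_mem (μ := μ) (s := 1) (d := ![1, c, c⁻¹])
    (by simp [Fin.forall_fin_succ, one_mem, hc]) (by simp))
  have c2 : 1 - (c : F) ≠ 0 := sub_ne_zero.2 fun e => c1 (Units.ext e.symm)
  have c3 : 1 - (c : F)⁻¹ ≠ 0 := sub_ne_zero.2 fun e => c1 (Units.ext (inv_eq_one.1 e.symm))
  refine span_top ?_ ?_
  · convert Subalgebra.smul_mem _ (mul_mem (sub_mem h (Subalgebra.smul_mem _ (one_mem _) (c : F)))
      (sub_mem h (Subalgebra.smul_mem _ (one_mem _) (c : F)⁻¹))) ((1 - (c : F)) * (1 - (c : F)⁻¹))⁻¹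
    ext a b
    fin_cases a <;> fin_cases b <;> simp [mul_apply, Fin.sum_univ_three, mon_apply, single, one_apply]
    rw [mul_comm _ (1 - (c : F))⁻¹, mul_mul_mul_comm, inv_mul_cancel₀ c3, inv_mul_cancel₀ c2, mul_one]
  · convert coe_mem_spanAlg (mon_mem (μ := μ) (s := finRotate 3) (d := 1) (fun _ => one_mem _) (by
      simp [sg, show Perm.sign (finRotate 3) = 1 by decide]))
    ext a b
    fin_cases a <;> fin_cases b <;> simp [mon_apply] <;> decide

/-- An element with trace `c`. -/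
def xc (c : Fˣ) : GL (Fin 3) F := mon (swap 1 2) ![c, 1, -c⁻¹]

theorem xc_mem (h : -1 ∈ μ) {c : Fˣ} (hc : c ∈ μ) : xc c ∈ Mon μ :=
  mon_mem (by simpa [Fin.forall_fin_succ, one_mem, hc] using mul_mem h (inv_mem hc)) (by simp [sg])

theorem tr_xc (c : Fˣ) : (xc c).val.trace = c ∧ (xc c)⁻¹.val.trace = (c : F)⁻¹ := by
  rw [xc, mon_inv]
  simp [trace_fin_three, mon_apply, swap_apply_def]

/-- The elements of norm one. -/
abbrev nrm (σ : F →+* F) : Subgroup Fˣ := Geom.normOne σ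

theorem mem_nrm {σ : F →+* F} {c : Fˣ} : c ∈ nrm σ ↔ c * σ c = 1 := by rw [mul_comm]; rfl

theorem neg_mem_nrm (σ : F →+* F) : -1 ∈ nrm σ := by simp [mem_nrm]

variable {φ ψ : FD (Fin 3) F}

theorem mon_isom (h : φ.G = 1) : mon s d ∈ φ.isom ↔ ∀ i, d i ∈ nrm φ.σ := by
  have : (mon s d).valᵀ * (mon s d).val.map φ.σ = diagonal fun i => d i * φ.σ (d i) := by
    ext i j
    by_cases e : i = j <;> simp [mul_apply, mon_apply, apply_ite φ.σ, e, diagonal, eq_comm]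
  rw [φ.mem_isom_iff_gram, h, Units.val_one, mul_one, this, ← diagonal_one, diagonal_eq_diagonal_iff]
  simp only [mem_nrm]

theorem Mon_le_su (h : φ.G = 1) : Mon (nrm φ.σ) ≤ φ.su := by
  rintro _ ⟨e, s, d, hd, rfl⟩
  exact ⟨(mon_isom h).2 hd, e⟩

theorem card_nrm [Fintype F] {q : ℕ} (h : φ.IsU q) : Nat.card (nrm φ.σ) = q + 1 :=
  Geom.card_normOne h.card h.σ

theorem exists_cols {b : Fin 3 → Fin 3 → F} {c : F} (hc : c ≠ 0)
    (h : ∀ i j, φ.f (b i) (b j) = (c • 1 : Matrix _ _ F) i j) : ∃ P : GL (Fin 3) F,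
      (∀ i, P.val *ᵥ Pi.single i 1 = b i) ∧ P.valᵀ * φ.G * P.val.map φ.σ = c • 1 := by
  have e : ∀ i, (of b)ᵀ *ᵥ Pi.single i 1 = b i := fun i => by ext; simp
  have k : (of b)ᵀᵀ * φ.G * (of b)ᵀ.map φ.σ = c • 1 := Matrix.ext fun i j => by
    rw [← h, ← e i, ← e j, FD.f, sf_mulVec, sf_single]
  exact ⟨.mkOfDetNeZero _ fun e => by
    simpa [hc, (det_transpose _).symm.trans e] using (congrArg det k).symm, e, k⟩

theorem frame_u [Fintype F] {q : ℕ} (h : φ.IsU q) :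
    ∃ P : GL (Fin 3) F, P.valᵀ * φ.G * P.val.map φ.σ = (1 : F) • 1 := by
  obtain ⟨b, h1, h2⟩ := h.exists_onb (n := 3) (by simp)
  obtain ⟨P, -, k⟩ := exists_cols (φ := φ) (b := b) one_ne_zero fun i j => by
    by_cases e : i = j <;> simp [e, h2, h1.orth]
  exact ⟨P, k⟩

theorem frame_o [Finite F] (hσ : φ.σ = RingHom.id F) (hε : φ.ε = 1) (h2 : (2 : F) ≠ 0) :
    ∃ (P : GL (Fin 3) F) (c : F), c ≠ 0 ∧ P.valᵀ * φ.G * P.val.map φ.σ = c • 1 := by
  have e : ∀ A : Matrix (Fin 3) (Fin 3) F, Geom.gram (toBilin' A) (Pi.basisFun F _) = A := fun A => by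
    ext; simp
  have s : ∀ A : Matrix (Fin 3) (Fin 3) F, Aᵀ = A → (toBilin' A).IsSymm := fun A h => ⟨fun x y => by
    simp only [toBilin'_apply', RingHom.id_apply]
    rw [dotProduct_mulVec, ← mulVec_transpose, h, dotProduct_comm]⟩
  have h0 := φ.G.det_ne_zero
  obtain ⟨g, hg⟩ := Geom.exists_equiv_of_isSquare_disc h2 (s (φ.G.val.det • 1) (by simp))
    (Geom.nondegenerate_of_det_gram (Pi.basisFun F _) (by simp [-map_smul, e, h0])) (s φ.G (by simp [φ.herm, hσ, hε]))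
    (Geom.nondegenerate_of_det_gram (Pi.basisFun F _) (by simp [e, h0])) rfl (Pi.basisFun F _)
    (Pi.basisFun F _) ⟨φ.G.val.det ^ 2, by simp [-map_smul, e]; ring⟩
  obtain ⟨P, -, k⟩ := exists_cols (φ := φ) (b := fun i => g (Pi.single i 1)) h0 fun i j => by
    have := hg (Pi.single i 1) (Pi.single j 1)
    rw [toBilin'_single, toBilin'_apply'] at this
    rw [FD.f, hσ, ← this]; rfl
  exact ⟨P, _, h0, k⟩

theorem isom_cj {P : GL (Fin 3) F} {c : F} (hc : c ≠ 0) (h : P.valᵀ * φ.G * P.val.map φ.σ = c • 1)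
    (h1 : ψ.σ = φ.σ) (h2 : ψ.G = 1) (g : GL (Fin 3) F) : (g ∈ φ.isom ↔ P⁻¹ * g * P ∈ ψ.isom) ∧
      (g ∈ similarityGroup φ.f ↔ P⁻¹ * g * P ∈ similarityGroup ψ.f) := by
  have : (φ.coordFD (.refl _) P).f = (ψ.smul (.mk0 c hc)).f :=
    FD.f_eq_of_G h1.symm (Units.ext (h.trans (by simp [FD.smul_G, h2])))
  rw [← φ.coordGL_mem_isom (.refl _) P, ← φ.coordGL_mem_sim (.refl _) P, this, ← ψ.smul_isom (.mk0 c hc),
    FD.smul_sim, FD.isom, this, show coordGL (.refl _) P g = P⁻¹ * g * P from Units.ext rfl]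
  exact ⟨.rfl, .rfl⟩

theorem sl_cj (P g : GL (Fin 3) F) : g ∈ specialLinear (Fin 3) F ↔ P⁻¹ * g * P ∈ specialLinear (Fin 3) F := by
  simp [specialLinear]

theorem dec_iff {D : Fin 3 → Submodule F (Fin 3 → F)} {P : GL (Fin 3) F}
    (h : ∀ i, D i = Submodule.span F {P.val *ᵥ Pi.single i 1}) (g : GL (Fin 3) F) :
    g ∈ decompositionStabilizer D ↔ ∃ s d, P⁻¹ * g * P = mon s d := by
  constructor
  · rintro ⟨s, hs⟩
    have : ∀ i, ∃ c : F, c • P.val *ᵥ Pi.single (s i) 1 = g.val *ᵥ P.val *ᵥ Pi.single i 1 := fun i =>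
      Submodule.mem_span_singleton.1 (h _ ▸ hs i ▸ ⟨_, h i ▸ Submodule.mem_span_singleton_self _, rfl⟩)
    choose c hc using this
    refine ⟨s, fun i => .mk0 (c i) fun e => ?_, Units.ext (ext_of_mulVec_single fun i => ?_)⟩
    · simpa using gl_mulVec_eq_zero _ (gl_mulVec_eq_zero _ ((hc i).symm.trans (by simp [e])))
    · simp only [Units.val_mul, ← mulVec_mulVec, ← hc, mon_single, mulVec_smul, inv_mulVec_mulVec]; rfl
  · rintro ⟨s, d, e⟩
    refine ⟨s, fun i => ?_⟩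
    rw [h, h, Submodule.map_span, Set.image_singleton, toLin'_apply, mulVec_mulVec,
      show g.val * P.val = (P * mon s d).val by simp [← e, mul_assoc], Units.val_mul, ← mulVec_mulVec,
      mon_single, mulVec_smul, Submodule.span_singleton_smul_eq (d i).isUnit]

theorem dec_nf {D : Fin 3 → Submodule F (Fin 3 → F)} (h : IsMDecomposition 1 D) :
    ∃ P : GL (Fin 3) F, ∀ g, g ∈ decompositionStabilizer D ⊓ specialLinear _ F ↔ P⁻¹ * g * P ∈ Mon ⊤ := by
  obtain ⟨e, P, -, k⟩ := exists_crd_mdec' h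
  refine ⟨glOfEquiv ((LinearEquiv.funCongrLeft F F (Equiv.uniqueProd _ _)).trans (crd e P)), fun g => ?_⟩
  refine and_comm.trans (and_congr (sl_cj _ g) ((dec_iff (fun i => ?_) g).trans
    ⟨fun ⟨s, d, e⟩ => ⟨s, d, fun _ => trivial, e⟩, fun ⟨s, d, _, e⟩ => ⟨s, d, e⟩⟩))
  rw [k, Set.range_unique, glOfEquiv_mulVec]
  refine congrArg (fun v => Submodule.span F {crd e P v}) (funext fun ⟨a, j⟩ => ?_)
  simp [Pi.single_apply, Subsingleton.elim a default]

theorem ndec_nf [Fintype F] {q : ℕ} (u : φ.IsU q) (hG : φ.G = 1) {D : Fin 3 → Submodule F (Fin 3 → F)}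
    (h : IsNondegenerateMDecomposition φ.f 1 D) : ∃ P ∈ φ.isom,
      ∀ g, g ∈ decompositionStabilizer D ⊓ φ.su ↔ P⁻¹ * g * P ∈ Mon (nrm φ.σ) := by
  obtain ⟨b, hb, k, -⟩ := FD.exists_frame_of_ndec h
  choose t ht using fun i => u.exists_norm (c := (φ.f (b i) (b i))⁻¹) (by rw [map_inv₀, u.conj_f])
  obtain ⟨P, h1, h2⟩ := exists_cols (φ := φ) (b := fun i => t i • b i) one_ne_zero fun i j => by
    rw [φ.f_smul_left, φ.f_smul_right, ← mul_assoc]
    by_cases e : i = j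
    · simp [e, ht, hb.ne]
    · simp [e, hb.orth i j e]
  refine ⟨P, φ.mem_isom_iff_gram.2 (by simpa [hG] using h2), fun g => ?_⟩
  have := dec_iff (D := D) (P := P) (fun i => by
    rw [h1, k, Submodule.span_singleton_smul_eq (IsUnit.mk0 _ fun e => hb.ne i (by simpa [e] using (ht i).symm))]) g
  refine ⟨fun ⟨a, b, c⟩ => ?_, fun ⟨a, s, d, b, c⟩ => ⟨this.2 ⟨s, d, c⟩,
    (isom_cj one_ne_zero h2 rfl hG g).1.2 (c ▸ (mon_isom hG).2 b), (sl_cj P g).2 a⟩⟩
  obtain ⟨s, d, e⟩ := this.1 a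
  exact ⟨(sl_cj P g).1 c, s, d, (mon_isom hG).1 (e ▸ (isom_cj one_ne_zero h2 rfl hG g).1.1 b), e⟩

end CF.MH
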