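/-
The normaliser of `3^{1+2}` in `GL₃(F)`.
-/
import Cfsg.Agent.MH.Mon
import Cfsg.Agent.Solv.Nilpotent
import Cfsg.Agent.Classical.Linear

set_option autoImplicit false

namespace CF.MH

open Matrix Cfsg Cfsg.Geo CF.MaxSub Subgroup Equiv
open scoped MatrixGroups commutatorElement

theorem class2_of_card {G : Type*} [Group G] (h : Nat.card G = 27) (x y : G) : ⁅x, y⁆ ∈ center G := by
  have : Fact (Nat.Prime 3) := ⟨Nat.prime_three⟩
  obtain ⟨k, hk, e⟩ := IsPGroup.card_center_eq_prime_pow (p := 3) (n := 3) h (by norm_num)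
  have c := (center G).card_mul_index
  have : (center G).index ∣ 3 ^ 2 := Nat.dvd_of_mul_dvd_mul_left (by norm_num : 0 < 3)
    ((mul_dvd_mul_right (e ▸ dvd_pow_self 3 hk.ne') _).trans (c.trans h).dvd)
  rw [← QuotientGroup.eq_one_iff, ← QuotientGroup.mk'_apply, map_commutatorElement,
    commutatorElement_eq_one_iff_mul_comm]
  rcases (Nat.dvd_prime_pow Nat.prime_three).1 this with ⟨j, hj, e⟩
  rcases hj.eq_or_lt with rfl | hj
  · exact (IsPGroup.isMulCommutative_of_card_eq_prime_sq e).is_comm.comm _ _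
  · have := isCyclic_of_card_dvd_prime (α := G ⧸ center G) (p := 3)
      (e.dvd.trans ((pow_dvd_pow 3 (Nat.le_of_lt_succ hj)).trans (by simp)))
    exact mul_comm' _ _

theorem class2_of_char {G : Type*} [Group G] [Finite G] (h : IsPGroup 3 G) (e : ∀ x : G, x ^ 3 = 1)
    (hc : ∀ A : Subgroup G, A.Characteristic → IsMulCommutative A → IsCyclic A) (hZ : Nat.card (center G) = 3)
    (x y : G) : ⁅x, y⁆ ∈ center G := by
  have : Fact (Nat.Prime 3) := ⟨Nat.prime_three⟩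
  have := h.isNilpotent
  let Z := Subgroup.upperCentralSeries G 2
  have : IsCyclic ↥(Z ⊓ centralizer (Z : Set G)) := hc _ inferInstance
    ⟨⟨fun a b => Subtype.ext (b.2.2 _ a.2.1)⟩⟩
  have h1 : center G = Z ⊓ centralizer (Z : Set G) := eq_of_le_of_card_ge (le_inf
    (Subgroup.upperCentralSeries_one G ▸ Subgroup.upperCentralSeries_mono G one_le_two) (center_le_centralizer _)) (by
      rw [hZ, ← IsCyclic.exponent_eq_card]
      exact Nat.le_of_dvd three_pos (Monoid.exponent_dvd_of_forall_pow_eq_one fun a => Subtype.ext (e _)))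
  have h2 : ⁅Z, ⊤⁆ ≤ center G := Subgroup.upperCentralSeries_one G ▸ commutator_upperCentralSeries_top_le G 1
  rw [← commutator_top_right_eq_bot_iff_le_center] at h2
  have h3 := commutator_eq_bot_iff_le_centralizer.1
    (commutator_commutator_eq_bot_of_rotate (by rwa [Subgroup.commutator_comm ⊤ Z]) h2)
  by_contra k
  refine Solv.normal_inf_center_ne_bot (_root_.commutator (G ⧸ center G)) (fun e => k ?_)
    (eq_bot_iff.2 fun a ⟨ha, hb⟩ => ?_)
  · rw [← QuotientGroup.eq_one_iff, ← QuotientGroup.mk'_apply, map_commutatorElement, ← mem_bot, ← e]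
    exact commutator_mem_commutator trivial trivial
  · rw [_root_.commutator_def, ← map_top_of_surjective _ (QuotientGroup.mk'_surjective _), ← map_commutator] at ha
    obtain ⟨a, ha, rfl⟩ := ha
    refine (QuotientGroup.eq_one_iff _).2 (h1.ge ⟨?_, h3 ha⟩)
    exact (Subgroup.comap_upperCentralSeries_quotient_center 1).le
      ((Subgroup.upperCentralSeries_one _).ge hb)

variable {F : Type*} [Field F]

/-- A primitive cube root of unity. -/
structure Om (w : Fˣ) : Prop where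
  eq : (w : F) * w + w + 1 = 0
  ne : (3 : F) ≠ 0

/-- Powers of `w`. -/
def wp (w : Fˣ) (x : ZMod 3) : Fˣ := w ^ x.val

/-- Rotations. -/
def rot (j : ZMod 3) : Perm (Fin 3) := finRotate 3 ^ j.val

/-- The elements of `3^{1+2}`. -/
def EE (w : Fˣ) (k i j : ZMod 3) : GL (Fin 3) F := mon (rot j) fun l => wp w (k + i * (l.val + j))

/-- A diagonal element of the normaliser. -/
def dd (w : Fˣ) : GL (Fin 3) F := mon 1 fun l => wp w (l.val * l.val)

/-- Its action. -/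
def mD : SL(2, ZMod 3) := ⟨!![1, 2; 0, 1], by decide⟩

/-- The action of the Fourier matrix. -/
def mF : SL(2, ZMod 3) := ⟨!![0, 1; -1, 0], by decide⟩

variable {w : Fˣ}

theorem EE_zero : EE w 0 0 0 = 1 := by simp [EE, wp, rot, ← mon_one]; rfl

theorem EE_sc (k : ZMod 3) : EE w k 0 0 = scalarGL _ (wp w k) := Units.ext (Matrix.ext fun i j => by
  by_cases e : i = j <;> simp [EE, rot, mon_apply, e])

theorem coe_EE_b : (EE w 0 0 1).val = !![0, 0, 1; 1, 0, 0; 0, 1, 0] := by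
  ext i j; fin_cases i <;> fin_cases j <;> simp [EE, wp, rot, mon_apply, ZMod.val_one]

theorem coe_EE_a : (EE w 0 1 0).val = !![1, 0, 0; 0, (w : F), 0; 0, 0, w * w] := by
  ext i j; fin_cases i <;> fin_cases j <;> simp [EE, wp, rot, mon_apply, sq, ZMod.val_one, ZMod.val_two_eq_two_mod]

namespace Om

variable (h : Om w)
include h

theorem cube : w ^ 3 = 1 := Units.ext (by simp; linear_combination (w - 1 : F) * h.eq)

theorem cube' : (w : F) ^ 3 = 1 := by simpa using congrArg Units.val h.cube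

theorem ne_one : w ≠ 1 := fun e => h.ne (by simpa [e, ← two_add_one_eq_three, ← one_add_one_eq_two] using h.eq)

theorem orderOf_eq : orderOf w = 3 := orderOf_eq_prime (hp := ⟨Nat.prime_three⟩) h.cube h.ne_one

theorem wp_add (x y : ZMod 3) : wp w (x + y) = wp w x * wp w y := by
  rw [wp, ZMod.val_add, ← pow_eq_pow_mod _ h.cube, pow_add]; rfl

theorem wp_inj : Function.Injective (wp w) := fun x y e => ZMod.val_injective 3
  (pow_injOn_Iio_orderOf (x.val_lt.trans_eq h.orderOf_eq.symm) (y.val_lt.trans_eq h.orderOf_eq.symm) e)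

theorem exists_wp {c : F} (e : c ^ 3 = 1) : ∃ k, c = wp w k := by
  have : (c - 1) * ((c - w) * (c - w * w)) = 0 := by
    linear_combination e + (c - c * c) * h.eq + (c * w + c - 1) * h.cube' - c * w * h.cube'
  simp only [mul_eq_zero, sub_eq_zero] at this
  rcases this with e | e | e
  exacts [⟨0, by simp [e, wp]⟩, ⟨1, by simp [e, wp, ZMod.val_one]⟩, ⟨2, by simp [e, wp, sq, ZMod.val_two_eq_two_mod]⟩]

theorem EE_mul (k i j k' i' j' : ZMod 3) :
    EE w k i j * EE w k' i' j' = EE w (k + k' - i' * j) (i + i') (j + j') := by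
  rw [EE, EE, mon_mul, EE]
  congr 1
  · revert j j'; decide
  · refine funext fun l => (h.wp_add _ _).symm.trans (congrArg _ ?_)
    rw [show ((rot j' l).val : ZMod 3) = l.val + j' by revert j' l; decide]; ring

theorem EE_inv (k i j : ZMod 3) : (EE w k i j)⁻¹ = EE w (-k - i * j) (-i) (-j) :=
  inv_eq_of_mul_eq_one_right (by rw [h.EE_mul, ← EE_zero (w := w)]; congr 1 <;> ring)

theorem EE_inj {k i j k' i' j' : ZMod 3} (e : EE w k i j = EE w k' i' j') : k = k' ∧ i = i' ∧ j = j' := by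
  obtain ⟨e1, e2⟩ := mon_inj e
  have := fun l => h.wp_inj (congrFun e2 l)
  clear e e2
  revert k i k' i' j j'; decide +kernel

theorem EE_pow (k i j : ZMod 3) (n : ℕ) : ∃ k', EE w k i j ^ n = EE w k' (n * i) (n * j) := by
  induction n with
  | zero => exact ⟨0, by simp [EE_zero]⟩
  | succ n e => obtain ⟨k', e⟩ := e; exact ⟨_, by rw [pow_succ, e, h.EE_mul]; congr 1 <;> push_cast <;> ring⟩

theorem EE_cube (k i j : ZMod 3) : EE w k i j ^ 3 = 1 := by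
  rw [pow_three, h.EE_mul, h.EE_mul, ← EE_zero (w := w)]
  congr 1 <;> revert k i j <;> decide

theorem EE_eq (k i j : ZMod 3) : EE w k i j = EE w k 0 0 * EE w 0 1 0 ^ i.val * EE w 0 0 1 ^ j.val := by
  have : ∀ i : ZMod 3, i = 0 ∨ i = 1 ∨ i = 2 := by decide
  rcases this i with rfl | rfl | rfl <;> rcases this j with rfl | rfl | rfl <;>
    simp [ZMod.val_one, ZMod.val_two_eq_two_mod, sq, h.EE_mul] <;> rfl

/-- The standard extraspecial group. -/
def R0 : Subgroup (GL (Fin 3) F) where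
  carrier := {g | ∃ k i j, g = EE w k i j}
  mul_mem' := by rintro _ _ ⟨k, i, j, rfl⟩ ⟨k', i', j', rfl⟩; exact ⟨_, _, _, h.EE_mul ..⟩
  one_mem' := ⟨0, 0, 0, EE_zero.symm⟩
  inv_mem' := by rintro _ ⟨k, i, j, rfl⟩; exact ⟨_, _, _, h.EE_inv ..⟩

theorem mem (k i j : ZMod 3) : EE w k i j ∈ h.R0 := ⟨k, i, j, rfl⟩

theorem card_R0 : Nat.card h.R0 = 27 :=
  (Nat.card_eq_of_bijective (fun x : ZMod 3 × ZMod 3 × ZMod 3 => (⟨_, h.mem x.1 x.2.1 x.2.2⟩ : h.R0))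
    ⟨fun _ _ e => let ⟨a, b, c⟩ := h.EE_inj (congrArg Subtype.val e); Prod.ext a (Prod.ext b c),
      fun ⟨_, k, i, j, e⟩ => ⟨(k, i, j), Subtype.ext e.symm⟩⟩).symm.trans (by simp)

theorem R0_le {μ : Subgroup Fˣ} (hw : w ∈ μ) : h.R0 ≤ Mon μ := by
  rintro _ ⟨k, i, j, rfl⟩
  refine mon_mem (fun _ => pow_mem hw _) ?_
  rw [← h.wp_add, ← h.wp_add, sg, MonoidHom.comp_apply, show Perm.sign (rot j) = 1 by revert j; decide,
    map_one, one_mul, show _ + _ = (0 : ZMod 3) by revert k i j; decide]; simp [wp]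

theorem le_of {M : Subgroup (GL (Fin 3) F)} (a : EE w 0 1 0 ∈ M) (b : EE w 0 0 1 ∈ M) : h.R0 ≤ M := by
  rintro _ ⟨k, i, j, rfl⟩
  have z : EE w 0 1 0 * EE w 0 0 1 * (EE w 0 1 0)⁻¹ * (EE w 0 0 1)⁻¹ = EE w 1 0 0 := by
    simp [h.EE_inv, h.EE_mul]
  rw [h.EE_eq]
  refine mul_mem (mul_mem ?_ (pow_mem a _)) (pow_mem b _)
  convert pow_mem (z ▸ mul_mem (mul_mem (mul_mem a b) (inv_mem a)) (inv_mem b)) k.val
  rw [EE_sc, EE_sc, ← scalarGL_pow, wp, wp, ZMod.val_one, pow_one]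

theorem span_R0 : spanAlg h.R0 = ⊤ := by
  have a := coe_mem_spanAlg (h.mem 0 1 0)
  refine span_top ?_ (coe_EE_b (w := w) ▸ coe_mem_spanAlg (h.mem 0 0 1))
  convert Subalgebra.smul_mem _ (add_mem (add_mem (one_mem _) a) (mul_mem a a)) (3 : F)⁻¹
  rw [coe_EE_a, eq_inv_smul_iff₀ h.ne]
  ext i j; fin_cases i <;> fin_cases j <;> simp
  · norm_num
  · linear_combination -h.eq
  · linear_combination -h.eq - w * h.cube'

/-- The normaliser. -/
abbrev N0 := subgroupNormalizer h.R0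

theorem mem_N0 [Finite F] {g : GL (Fin 3) F} (a : g * EE w 0 1 0 * g⁻¹ ∈ h.R0) (b : g * EE w 0 0 1 * g⁻¹ ∈ h.R0) :
    g ∈ h.N0 := mem_normalizer_fintype fun _ hx =>
  h.le_of (M := h.R0.comap (MulAut.conj g).toMonoidHom) a b hx

/-- The action on `R / Z(R)`. -/
def _root_.CF.MH.Act (w : Fˣ) (g : GL (Fin 3) F) (m : SL(2, ZMod 3)) : Prop := ∀ k i j, ∃ k',
  g * EE w k i j * g⁻¹ = EE w k' (m 0 0 * i + m 0 1 * j) (m 1 0 * i + m 1 1 * j)

theorem act {g : GL (Fin 3) F} {m : SL(2, ZMod 3)} {k l : ZMod 3}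
    (a : g * EE w 0 1 0 * g⁻¹ = EE w k (m 0 0) (m 1 0)) (b : g * EE w 0 0 1 * g⁻¹ = EE w l (m 0 1) (m 1 1)) :
    Act w g m := fun k' i j => by
  obtain ⟨k1, e1⟩ := h.EE_pow k (m 0 0) (m 1 0) i.val
  obtain ⟨k2, e2⟩ := h.EE_pow l (m 0 1) (m 1 1) j.val
  refine ⟨k' + k1 + k2 - j * m 0 1 * (i * m 1 0), ?_⟩
  rw [h.EE_eq, ← conj_mul, ← conj_mul, ← conj_pow, ← conj_pow, a, b, e1, e2, EE_sc,
    ← scalars_comm (scalarGL_mem _), mul_inv_cancel_right, ← EE_sc, h.EE_mul, h.EE_mul]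
  simp [mul_comm]

theorem exists_act {g : GL (Fin 3) F} (hg : g ∈ h.N0) : ∃ m, Act w g m := by
  obtain ⟨k, p, r, a⟩ := (hg _).1 (h.mem 0 1 0)
  obtain ⟨l, q, s, b⟩ := (hg _).1 (h.mem 0 0 1)
  have : g * (EE w 0 1 0 * EE w 0 0 1) * g⁻¹ = g * (EE w 1 0 0 * (EE w 0 0 1 * EE w 0 1 0)) * g⁻¹ := by
    simp [h.EE_mul]
  rw [← conj_mul, ← conj_mul, ← conj_mul, a, b, EE_sc, ← scalars_comm (scalarGL_mem _), mul_inv_cancel_right,
    ← EE_sc, h.EE_mul, h.EE_mul, h.EE_mul] at this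
  exact ⟨⟨!![p, q; r, s], by rw [det_fin_two_of]; linear_combination (h.EE_inj this).1⟩, h.act a b⟩

theorem act_unique {g : GL (Fin 3) F} {m m' : SL(2, ZMod 3)} (a : Act w g m) (b : Act w g m') : m = m' := by
  obtain ⟨_, a1⟩ := a 0 1 0
  obtain ⟨_, a2⟩ := a 0 0 1
  obtain ⟨_, b1⟩ := b 0 1 0
  obtain ⟨_, b2⟩ := b 0 0 1
  have c := (h.EE_inj (a1.symm.trans b1)).2
  have d := (h.EE_inj (a2.symm.trans b2)).2
  ext i j
  fin_cases i <;> fin_cases j <;> simp_all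

theorem exists_rho : ∃ ρ : h.N0 →* SL(2, ZMod 3), (∀ g m, ρ g = m ↔ Act w g m) ∧
    ∀ g, g.1 ∈ specialLinear (Fin 3) F → (ρ g = 1 ↔ g.1 ∈ h.R0) := by
  choose ρ hρ using fun g : h.N0 => h.exists_act g.2
  have e : ∀ g m, ρ g = m ↔ Act w g m := fun g m => ⟨fun e => e ▸ hρ g, h.act_unique (hρ g)⟩
  refine ⟨.mk' ρ fun a b => (e _ _).2 fun k i j => ?_, e, fun g s => (e _ _).trans ⟨fun a => ?_, ?_⟩⟩
  · obtain ⟨k1, e1⟩ := hρ b k i j
    obtain ⟨k2, e2⟩ := hρ a k1 (ρ b 0 0 * i + ρ b 0 1 * j) (ρ b 1 0 * i + ρ b 1 1 * j)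
    refine ⟨k2, .trans (by simp [← e1, mul_assoc]) (e2.trans ?_)⟩
    congr 1 <;> simp [mul_apply, Fin.sum_univ_two] <;> ring
  · obtain ⟨k, a1⟩ := a 0 1 0
    obtain ⟨l, a2⟩ := a 0 0 1
    obtain ⟨c, hc⟩ := mem_scalars_of_comm h.span_R0 (x := (EE w 0 l (-k))⁻¹ * g) fun y hy =>
      (h.le_of (M := centralizer {_}) (mem_centralizer_singleton_iff.2 (.symm (by
        rw [mul_assoc, mul_inv_eq_iff_eq_mul.1 a1, ← mul_assoc, ← mul_assoc]; simp [h.EE_inv, h.EE_mul, add_comm])))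
        (mem_centralizer_singleton_iff.2 (.symm (by
          rw [mul_assoc, mul_inv_eq_iff_eq_mul.1 a2, ← mul_assoc, ← mul_assoc]; simp [h.EE_inv, h.EE_mul, add_comm])))
        hy _ rfl)
    · have := mem_specialLinear.1 (mul_mem (inv_mem (h.R0_le (μ := ⊤) trivial (h.mem 0 l (-k))).1) s)
      obtain ⟨n, hn⟩ := h.exists_wp (c := c) (by simpa [← hc] using this)
      rw [← mul_inv_cancel_left (EE w 0 l (-k)) g.1, ← hc]
      exact mul_mem (h.mem ..) ⟨n, 0, 0, by rw [EE_sc, ← Units.ext hn]; rfl⟩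
  · rintro ⟨k, i, j, e⟩ k' i' j'
    exact ⟨_, by rw [e, h.EE_inv, h.EE_mul, h.EE_mul]; congr 1 <;> simp⟩

theorem card_eq [Finite F] {M : Subgroup (GL (Fin 3) F)} (a : M ≤ h.N0) (b : M ≤ specialLinear _ F) :
    ∃ S : Subgroup SL(2, ZMod 3), Nat.card M = Nat.card ↥(h.R0 ⊓ M) * Nat.card S ∧
      ∀ g ∈ M, ∀ m, Act w g m → m ∈ S := by
  obtain ⟨ρ, h1, h2⟩ := h.exists_rho
  refine ⟨(ρ.comp (inclusion a)).range, ?_, fun g hg m e => ⟨⟨g, hg⟩, (h1 _ _).2 e⟩⟩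
  rw [← (ρ.comp (inclusion a)).ker.card_mul_index, index_ker, show (ρ.comp (inclusion a)).ker =
    (h.R0 ⊓ M).subgroupOf M from ext fun g => (h2 _ (b g.2)).trans (and_iff_left g.2).symm,
    Nat.card_congr (subgroupOfEquivOfLe inf_le_right).toEquiv]

theorem card_dvd [Finite F] {M : Subgroup (GL (Fin 3) F)} (a : M ≤ h.N0) (b : M ≤ specialLinear _ F) :
    Nat.card M ∣ 648 := by
  obtain ⟨S, e, -⟩ := h.card_eq a b
  exact e ▸ mul_dvd_mul (h.card_R0 ▸ card_dvd_of_le inf_le_left) (S.card_subgroup_dvd_card.trans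
    (by rw [Classical.card_SL_two]; simp : _ ∣ 24))

theorem invol {u v : GL (Fin 3) F} (hu : u ∈ h.N0 ⊓ specialLinear _ F) (hv : v ∈ h.N0 ⊓ specialLinear _ F)
    (u1 : u ≠ 1) (v1 : v ≠ 1) (u2 : u * u = 1) (v2 : v * v = 1) (e : u * v * (u * v) = 1) : u * v = 1 := by
  obtain ⟨ρ, -, h2⟩ := h.exists_rho
  have k : ∀ g (hg : g ∈ h.N0 ⊓ specialLinear _ F), g * g = 1 → ρ ⟨g, hg.1⟩ = 1 → g = 1 := fun g hg e1 e2 => by
    obtain ⟨k, i, j, e⟩ := (h2 _ hg.2).1 e2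
    have := h.EE_cube k i j
    rwa [← e, pow_three, ← mul_assoc, e1, one_mul] at this
  have l : ∀ g (hg : g ∈ h.N0), g * g = 1 → ρ ⟨g, hg⟩ * ρ ⟨g, hg⟩ = 1 := fun g hg e => by
    rw [← map_mul, ← map_one ρ]; exact congrArg ρ (Subtype.ext e)
  exact k _ (mul_mem hu hv) e ((map_mul ρ ⟨u, hu.1⟩ ⟨v, hv.1⟩).trans
    ((by decide +kernel : ∀ x y : SL(2, ZMod 3), x ≠ 1 → y ≠ 1 → x * x = 1 → y * y = 1 → x * y = 1) _ _
      (mt (k u hu u2) u1) (mt (k v hv v2) v1) (l u _ u2) (l v _ v2)))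

theorem theta : ((w : F) - w * w) ^ 2 = -3 := by linear_combination h.eq + (w - 2) * h.cube'

theorem theta_ne : (w : F) - w * w ≠ 0 := fun e => h.ne (by simpa [e] using h.theta)

theorem ff_aux : (((w : F) - w * w)⁻¹ • !![(1 : F), 1, 1; 1, w, w * w; 1, w * w, w]) *
    (((w : F) - w * w)⁻¹ • !![(1 : F), 1, 1; 1, w, w * w; 1, w * w, w]) = (tt F).val := by
  rw [smul_mul_smul_comm, ← mul_inv, ← sq, h.theta, inv_smul_eq_iff₀ (neg_ne_zero.2 h.ne), coe_tt]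
  have := h.eq
  ext i j; fin_cases i <;> fin_cases j <;> simp <;> grind

/-- The Fourier matrix. -/
def ff : GL (Fin 3) F := ⟨((w : F) - w * w)⁻¹ • !![(1 : F), 1, 1; 1, w, w * w; 1, w * w, w],
  _ * (tt F).val, by rw [← mul_assoc, h.ff_aux, ← Units.val_mul, tt_mul, Units.val_one], by
    rw [← h.ff_aux, mul_assoc, mul_assoc, h.ff_aux, ← mul_assoc, h.ff_aux, ← Units.val_mul, tt_mul, Units.val_one]⟩

theorem ff_sq : h.ff * h.ff = tt F := Units.ext h.ff_aux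

theorem ff_sl : h.ff ∈ specialLinear (Fin 3) F := mem_specialLinear.2 (by
  rw [ff, det_smul, Fintype.card_fin, inv_pow, inv_mul_eq_one₀ (pow_ne_zero _ h.theta_ne), pow_succ, h.theta]
  have := h.eq
  simp [det_fin_three]; grind)

theorem act_ff : Act w h.ff mF := by
  have := h.eq
  refine h.act (k := 0) (l := 0) ?_ (mul_inv_eq_iff_eq_mul.2 (Units.ext ?_))
  · rw [show EE w 0 (mF 0 0) _ = (EE w 0 0 1)⁻¹ by rw [h.EE_inv]; rfl, mul_inv_eq_iff_eq_mul, eq_inv_mul_iff_mul_eq]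
    refine Units.ext ?_
    simp only [Units.val_mul, ff, coe_EE_a, coe_EE_b, smul_mul_assoc, mul_smul_comm]
    congr 1
    ext i j; fin_cases i <;> fin_cases j <;> simp <;> grind
  · change _ = (EE w 0 1 0 * _).val
    simp only [Units.val_mul, ff, coe_EE_a, coe_EE_b, smul_mul_assoc, mul_smul_comm]
    congr 1
    ext i j; fin_cases i <;> fin_cases j <;> simp <;> grind

theorem act_dd : Act w (dd w) mD := by
  refine h.act (k := 0) (l := 2) ?_ ?_ <;> rw [mul_inv_eq_iff_eq_mul] <;> simp only [EE, dd, mon_mul] <;>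
    congr 1 <;> funext i <;> rw [← h.wp_add, ← h.wp_add] <;> congr 1 <;> revert i <;> decide

theorem ncomm : tt F * (EE w 0 1 0 * tt F * (EE w 0 1 0)⁻¹) ≠ EE w 0 1 0 * tt F * (EE w 0 1 0)⁻¹ * tt F := fun e => by
  rw [h.EE_inv] at e
  simp only [tt, EE, mon_mul] at e
  have := congrFun (mon_inj e).2 1
  simp only [Pi.neg_apply, Pi.one_apply, mul_neg, neg_mul, mul_one, one_mul, neg_neg, ← h.wp_add] at this
  exact absurd (h.wp_inj this) (by decide)

theorem sc_O3 {M : Subgroup (GL (Fin 3) F)} (a : h.R0 ≤ M) : scalarGL _ w ∈ O3 F M := by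
  convert O3.comm (F := F) (a (h.mem 0 0 1)) (a (h.mem 0 1 0))
  simp [h.EE_inv, h.EE_mul, EE_sc, wp, ZMod.val_one]

theorem ff_isom {φ : FD (Fin 3) F} (hG : φ.G = 1) (hw : w ∈ nrm φ.σ) : h.ff ∈ φ.isom := by
  have e : φ.σ w = w * w := mul_left_cancel₀ w.ne_zero (by rw [mem_nrm.1 hw]; linear_combination -h.cube')
  have := h.eq
  have t : φ.σ (w - w * w) = -(w - w * w) := by simp [e]; grind
  rw [φ.mem_isom_iff_gram, hG, ff, Units.val_one, mul_one, transpose_smul, map_smul_eq, smul_mul_smul_comm,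
    map_inv₀, t, ← mul_inv, mul_neg, ← sq, h.theta, neg_neg, inv_smul_eq_iff₀ h.ne]
  ext i j; fin_cases i <;> fin_cases j <;> simp [e, mul_apply, Fin.sum_univ_three] <;> grind

omit h in
theorem dd_isom {φ : FD (Fin 3) F} (hG : φ.G = 1) (hw : w ∈ nrm φ.σ) : dd w ∈ φ.isom :=
  (mon_isom hG).2 fun _ => pow_mem hw _

end Om

theorem Act.mem [Finite F] (h : Om w) {g : GL (Fin 3) F} {m : SL(2, ZMod 3)} (a : Act w g m) : g ∈ h.N0 :=
  h.mem_N0 (let ⟨_, e⟩ := a 0 1 0; ⟨_, _, _, e⟩) (let ⟨_, e⟩ := a 0 0 1; ⟨_, _, _, e⟩)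

theorem Act.conj (h : Om w) {g g' : GL (Fin 3) F} {m m' : SL(2, ZMod 3)} [Finite F] (a : Act w g m)
    (b : Act w g' m') : Act w (g * g' * g⁻¹) (m * m' * m⁻¹) := by
  obtain ⟨ρ, e, -⟩ := h.exists_rho
  have := (e (⟨g, a.mem h⟩ * ⟨g', b.mem h⟩ * ⟨g, a.mem h⟩⁻¹) (m * m' * m⁻¹)).1 (by
    rw [map_mul, map_mul, map_inv, (e ⟨g, a.mem h⟩ m).2 a, (e ⟨g', b.mem h⟩ m').2 b])
  rwa [coe_mul, coe_mul, coe_inv] at this

theorem Om.dvd_card [Finite F] (h : Om w) {M : Subgroup (GL (Fin 3) F)} (a : M ≤ h.N0) (b : M ≤ specialLinear _ F)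
    (c : h.R0 ≤ M) (d : h.ff ∈ M) (e : dd w * h.ff * (dd w)⁻¹ ∈ M) : 216 ∣ Nat.card M := by
  obtain ⟨S, e1, e2⟩ := h.card_eq a b
  let Q : Subgroup SL(2, ZMod 3) :=
    { carrier := {x | x ^ 4 = 1}
      mul_mem' := fun {x y} => (by decide +kernel : ∀ x y : SL(2, ZMod 3), x ^ 4 = 1 → y ^ 4 = 1 → (x * y) ^ 4 = 1) x y
      one_mem' := one_pow 4
      inv_mem' := fun {x} (e : _ = _) => show _ = _ by rw [inv_pow, e, inv_one] }
  rw [e1, inf_eq_left.2 c, h.card_R0]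
  refine mul_dvd_mul_left 27 (((Nat.card_eq_fintype_card (α := {x : SL(2, ZMod 3) // x ^ 4 = 1})).trans
    (by decide +kernel : _ = 8)).symm.dvd.trans (card_dvd_of_le (H := Q) fun x hx => ?_))
  obtain ⟨i, j, rfl⟩ := (by decide +kernel : ∀ x : SL(2, ZMod 3), x ^ 4 = 1 → ∃ (i : Fin 4) (j : Fin 2),
    x = mF ^ i.val * (mD * mF * mD⁻¹) ^ j.val) x hx
  exact mul_mem (pow_mem (e2 _ d _ h.act_ff) _) (pow_mem (e2 _ e _ (h.act_dd.conj h h.act_ff)) _)

/-- Projection to an eigenspace. -/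
def pj (x : Matrix (Fin 3) (Fin 3) F) (c : F) (v : Fin 3 → F) : Fin 3 → F := v + (c * c) • x *ᵥ v + c • x *ᵥ x *ᵥ v

theorem pj_eig {x : Matrix (Fin 3) (Fin 3) F} {c : F} (e : x ^ 3 = 1) (hc : c ^ 3 = 1)
    (v : Fin 3 → F) : x *ᵥ pj x c v = c • pj x c v := by
  have : x *ᵥ x *ᵥ x *ᵥ v = v := by rw [mulVec_mulVec, mulVec_mulVec, ← pow_three', e, one_mulVec]
  simp only [pj, mulVec_add, mulVec_smul, this]
  linear_combination (norm := module) -hc • x *ᵥ v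

theorem Om.pj_sum (h : Om w) (x : Matrix (Fin 3) (Fin 3) F) (v : Fin 3 → F) :
    pj x 1 v + pj x w v + pj x (w * w) v = (3 : F) • v := by
  simp only [pj]
  linear_combination (norm := module) (h.eq + (w : F) * h.cube') • x *ᵥ v + h.eq • x *ᵥ x *ᵥ v

theorem Om.exists_vec (h : Om w) {R : Subgroup (GL (Fin 3) F)} (c : Nat.card R = 27) (e : ∀ x : R, x ^ 3 = 1)
    (n : ¬ IsMulCommutative R) : ∃ x ∈ R, ∃ y ∈ R, ∃ u : Fin 3 → F, u ≠ 0 ∧
      ∀ i : ℕ, x.val *ᵥ (y ^ i).val *ᵥ u = (w : F) ^ i • (y ^ i).val *ᵥ u := by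
  have e' : ∀ x ∈ R, ∀ (k : ZMod 3) v, x.val *ᵥ pj x.val (wp w k) v = (wp w k : F) • pj x.val (wp w k) v :=
    fun x hx k => pj_eig (congrArg (fun x : R => x.1.1) (e ⟨x, hx⟩))
      (by rw [wp, Units.val_pow_eq_pow_val, pow_right_comm, h.cube', one_pow])
  have s : ∀ (x : Matrix _ _ F) v, pj x (wp w 0) v + pj x (wp w 1) v + pj x (wp w 2) v = (3 : F) • v :=
    fun x v => by simpa [wp, ZMod.val_one, ZMod.val_two_eq_two_mod, sq] using h.pj_sum x v
  have m : ∀ x ∈ R, ∀ y ∈ R, ⁅x, y⁆ ∈ R := fun x hx y hy => (⁅(⟨x, hx⟩ : R), (⟨y, hy⟩ : R)⁆).2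
  suffices ∀ x ∈ R, ∀ y ∈ R, ∀ v ≠ 0, ⁅x, y⁆.val *ᵥ v = (w : F) • v → _ by
    obtain ⟨x, hx, y, hy, hxy⟩ : ∃ x ∈ R, ∃ y ∈ R, ⁅x, y⁆ ≠ 1 := by
      by_contra! k
      exact n ⟨⟨fun x y => Subtype.ext (commutatorElement_eq_one_iff_mul_comm.1 (k x x.2 y y.2))⟩⟩
    obtain ⟨v, hv⟩ : ∃ v, ⁅x, y⁆.val *ᵥ v ≠ v := by
      by_contra! k
      exact hxy (Units.ext (ext_of_mulVec_single fun i => (k _).trans (one_mulVec _).symm))
    by_cases e1 : pj ⁅x, y⁆.val (wp w 1) v = 0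
    · refine this y hy x hx (pj ⁅x, y⁆.val (wp w 2) v) (fun e2 => hv (smul_right_injective _ h.ne ?_)) ?_
      · have := e' _ (m x hx y hy) 0 v
        rw [show pj _ _ v = _ by simpa [e1, e2] using s ⁅x, y⁆.val v] at this
        simpa [wp, mulVec_smul] using this
      · refine gl_mulVec_injective ⁅x, y⁆ ?_
        simp only [mulVec_smul, e' _ (m x hx y hy), smul_smul]
        rw [← commutatorElement_inv x, mulVec_inv_mulVec]
        simp [wp, ZMod.val_two_eq_two_mod, ← pow_succ', h.cube']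
    · exact this x hx y hy _ e1 (by simpa [wp, ZMod.val_one] using e' _ (m x hx y hy) 1 v)
  intro x hx y hy v v0 hv
  have k : ∀ g ∈ R, ∀ v, ⁅x, y⁆.val *ᵥ g.val *ᵥ v = g.val *ᵥ ⁅x, y⁆.val *ᵥ v := fun g hg v => by
    simp only [mulVec_mulVec]
    exact congrArg (fun x : R => x.1.1 *ᵥ v) (mem_center_iff.1 (class2_of_card c ⟨x, hx⟩ ⟨y, hy⟩) ⟨g, hg⟩).symm
  obtain ⟨j, hj⟩ : ∃ j, pj x.val (wp w j) v ≠ 0 := by
    by_contra! k
    exact v0 (by simpa [k, h.ne] using (s x.val v).symm)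
  have z : ∀ g ∈ R, ⁅x, y⁆.val *ᵥ g.val *ᵥ pj x.val (wp w j) v = (w : F) • g.val *ᵥ pj x.val (wp w j) v :=
    fun g hg => by simp only [pj, mulVec_add, mulVec_smul, k _ hg, k _ hx, hv]; module
  refine ⟨_, mul_mem hx (pow_mem (m x hx y hy) (-j).val), y, hy, _, hj, fun i => ?_⟩
  have : ∀ m : ℕ, (⁅x, y⁆ ^ m).val *ᵥ (y ^ i).val *ᵥ pj x.val (wp w j) v =
      (w : F) ^ m • (y ^ i).val *ᵥ pj x.val (wp w j) v := fun m => by
    induction m with
    | zero => simp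
    | succ m e =>
      rw [pow_succ', pow_succ', mul_smul, Units.val_mul, ← mulVec_mulVec, e, mulVec_smul, z _ (pow_mem hy i), smul_comm]
  rw [Units.val_mul, ← mulVec_mulVec, this, mulVec_smul]
  clear this
  induction i with
  | zero =>
    simp only [pow_zero, Units.val_one, one_mulVec, e' x hx, smul_smul]
    rw [← Units.val_pow_eq_pow_val, ← wp, ← Units.val_mul, ← h.wp_add]; simp [wp]
  | succ i e =>
    rw [mulVec_mulVec, ← Units.val_mul, show x * y ^ (i + 1) = ⁅x, y⁆ * (y * (x * y ^ i)) by group]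
    simp only [Units.val_mul, ← mulVec_mulVec]
    rw [← mulVec_smul, ← mulVec_smul, e, mulVec_smul, mulVec_smul, mulVec_mulVec _ y.val, pow_succ (w : F),
      mul_smul, ← z _ (pow_mem hy _), pow_succ', Units.val_mul]

theorem Om.exists_P (h : Om w) {x y : GL (Fin 3) F} {u : Fin 3 → F} (u0 : u ≠ 0)
    (k : ∀ i : ℕ, x.val *ᵥ (y ^ i).val *ᵥ u = (w : F) ^ i • (y ^ i).val *ᵥ u) :
    ∃ P : GL (Fin 3) F, ∀ i : Fin 3, P.val *ᵥ Pi.single i 1 = (y ^ i.val).val *ᵥ u := by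
  have := Module.End.eigenvectors_linearIndependent' (toLin' x.val) (fun i : Fin 3 => (w : F) ^ i.val)
    (fun i j e => Fin.ext (pow_injOn_Iio_orderOf (i.2.trans_eq h.orderOf_eq.symm) (j.2.trans_eq h.orderOf_eq.symm)
      (Units.ext (by simpa using e)))) (fun i => (y ^ i.val).val *ᵥ u) fun i =>
      ⟨Module.End.mem_eigenspace_iff.2 (k i), mt (gl_mulVec_eq_zero _) u0⟩
  obtain ⟨P, hP⟩ := (linearIndependent_rows_iff_isUnit (A := of _)).1 this
  exact ⟨trGL P, fun i => by rw [coe_trGL, hP, mulVec_single_one]; rfl⟩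

theorem Om.nf [Finite F] (h : Om w) {R : Subgroup (GL (Fin 3) F)} (c : Nat.card R = 27) {x y P : GL (Fin 3) F}
    (hx : x ∈ R) (hy : y ∈ R) (e : y ^ 3 = 1) {u : Fin 3 → F}
    (k : ∀ i : ℕ, x.val *ᵥ (y ^ i).val *ᵥ u = (w : F) ^ i • (y ^ i).val *ᵥ u)
    (hP : ∀ i : Fin 3, P.val *ᵥ Pi.single i 1 = (y ^ i.val).val *ᵥ u) : R = cjS P h.R0 := by
  refine (eq_of_le_of_card_ge (map_le_iff_le_comap.2 (h.le_of ?_ ?_))
    (c.trans (h.card_R0.symm.trans (card_cj P fun _ => mem_cjS).symm)).le).symm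
  · suffices x = P * EE w 0 1 0 * P⁻¹ from show P * EE w 0 1 0 * P⁻¹ ∈ R from this ▸ hx
    refine eq_mul_inv_iff_mul_eq.2 (Units.ext (ext_of_mulVec_single fun i => ?_))
    simp only [Units.val_mul, ← mulVec_mulVec, EE, mon_single, mulVec_smul, hP, k]
    fin_cases i <;> simp [wp, rot, ZMod.val_one, ZMod.val_two_eq_two_mod]
  · suffices y = P * EE w 0 0 1 * P⁻¹ from show P * EE w 0 0 1 * P⁻¹ ∈ R from this ▸ hy
    refine eq_mul_inv_iff_mul_eq.2 (Units.ext (ext_of_mulVec_single fun i => ?_))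
    simp only [Units.val_mul, ← mulVec_mulVec, EE, mon_single, mulVec_smul, hP, k]
    rw [mulVec_mulVec, ← Units.val_mul, ← pow_succ', pow_eq_pow_mod _ e]
    fin_cases i <;> simp [wp, rot, ZMod.val_one]

theorem cjS_norm {G : Type*} [Group G] (P g : G) (R : Subgroup G) :
    g ∈ normalizer (cjS P R : Set G) ↔ P⁻¹ * g * P ∈ normalizer (R : Set G) := by
  rw [cjS, ← map_equiv_normalizer_eq]; exact mem_cjS

theorem Om.nf_l [Finite F] (h : Om w) {R : Subgroup (GL (Fin 3) F)} (c : Nat.card R = 27) (e : ∀ x : R, x ^ 3 = 1)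
    (n : ¬ IsMulCommutative R) : ∃ P, R = cjS P h.R0 := by
  obtain ⟨x, hx, y, hy, u, u0, k⟩ := h.exists_vec c e n
  obtain ⟨P, hP⟩ := h.exists_P u0 k
  exact ⟨P, h.nf c hx hy (congrArg Subtype.val (e ⟨y, hy⟩)) k hP⟩

theorem Om.nf_u [Fintype F] (h : Om w) {φ : FD (Fin 3) F} {q : ℕ} (u : φ.IsU q) (hG : φ.G = 1) (hw : w ∈ nrm φ.σ)
    {R : Subgroup (GL (Fin 3) F)} (hR : R ≤ φ.isom) (c : Nat.card R = 27) (e : ∀ x : R, x ^ 3 = 1)
    (n : ¬ IsMulCommutative R) : ∃ P ∈ φ.isom, R = cjS P h.R0 := by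
  obtain ⟨x, hx, y, hy, v, v0, k⟩ := h.exists_vec c e n
  have o : ∀ i j : Fin 3, φ.f ((y ^ i.val).val *ᵥ v) ((y ^ j.val).val *ᵥ v) = (φ.f v v • 1 : Matrix _ _ F) i j := by
    intro i j
    by_cases e : i = j
    · simp [e, -Units.val_pow_eq_pow_val, φ.mem_isom.1 (hR (pow_mem hy j))]
    have := φ.mem_isom.1 (hR hx) ((y ^ i.val).val *ᵥ v) ((y ^ j.val).val *ᵥ v)
    rw [k, k, φ.f_smul_left, φ.f_smul_right, ← mul_assoc, mul_left_eq_self₀] at this
    refine (this.resolve_left fun e' => e (Fin.ext (pow_injOn_Iio_orderOf (i.2.trans_eq h.orderOf_eq.symm)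
      (j.2.trans_eq h.orderOf_eq.symm) (Units.ext ?_)))).trans (by simp [e])
    simpa [← mul_assoc, mul_right_comm _ _ ((w : F) ^ j.val), mul_assoc ((w : F) ^ i.val), ← mul_pow, mem_nrm.1 hw,
      mul_comm (φ.σ w)] using congrArg (· * (w : F) ^ j.val) e'
  have v1 : φ.f v v ≠ 0 := fun e => v0 (φ.eq_zero_of_left fun z => by
    obtain ⟨P, hP⟩ := h.exists_P v0 k
    rw [← mulVec_inv_mulVec P z, pi_eq_sum_univ' (_ *ᵥ z), mulVec_sum, φ.f_sum_left]
    refine Finset.sum_eq_zero fun i _ => ?_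
    rw [mulVec_smul, hP, φ.f_smul_left, show φ.f _ v = 0 by simpa [e] using o i 0, mul_zero])
  obtain ⟨t, ht⟩ := u.exists_norm (c := (φ.f v v)⁻¹) (by rw [map_inv₀, u.conj_f])
  obtain ⟨P, h1, h2⟩ := exists_cols (φ := φ) (b := fun i => (y ^ i.val).val *ᵥ (t • v)) one_ne_zero fun i j => by
    rw [mulVec_smul, mulVec_smul, φ.f_smul_left, φ.f_smul_right, o, ← mul_assoc, ht]
    simp [← mul_assoc, v1]
  exact ⟨P, φ.mem_isom_iff_gram.2 (by simpa [hG] using h2), h.nf c hx hy (congrArg Subtype.val (e ⟨y, hy⟩))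
    (fun i => by simp only [mulVec_smul, k, smul_comm t]) h1⟩

end CF.MH
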